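import Mathlib

set_option autoImplicit false

/-!
The subgroup of order `120` generated by two transvections over the field with nine elements.
An element `x + y λ` with `λ² = -1` is coded by `3 x + y`.
-/

namespace CfsgLib.H29.TwoTrans

/-- Sum of codes. -/
def cadd (u v : ℕ) : ℕ := (u / 3 + v / 3) % 3 * 3 + (u + v) % 3

/-- Product of a code with `λ`. -/
def clam (u : ℕ) : ℕ := (3 - u % 3) % 3 * 3 + u / 3

/-- Right multiplication by the lower transvection. -/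
def stepL : ℕ × ℕ × ℕ × ℕ → ℕ × ℕ × ℕ × ℕ
  | (a, b, c, d) => (cadd a b, b, cadd c d, d)

/-- Right multiplication by the upper transvection. -/
def stepU : ℕ × ℕ × ℕ × ℕ → ℕ × ℕ × ℕ × ℕ
  | (a, b, c, d) => (a, cadd (clam a) b, c, cadd (clam c) d)

/-- The matrices of the subgroup. -/
def elts : List (ℕ × ℕ × ℕ × ℕ) := [
  (0, 4, 5, 0), (0, 4, 5, 4), (0, 4, 5, 8), (0, 5, 4, 0), (0, 5, 4, 5), (0, 5, 4, 7),
  (0, 7, 8, 0), (0, 7, 8, 5), (0, 7, 8, 7), (0, 8, 7, 0), (0, 8, 7, 4), (0, 8, 7, 8),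
  (1, 0, 0, 2), (1, 0, 1, 2), (1, 0, 2, 2), (1, 3, 0, 2), (1, 3, 1, 5), (1, 3, 2, 8),
  (1, 6, 0, 2), (1, 6, 1, 8), (1, 6, 2, 5), (2, 0, 0, 1), (2, 0, 1, 1), (2, 0, 2, 1),
  (2, 3, 0, 1), (2, 3, 1, 7), (2, 3, 2, 4), (2, 6, 0, 1), (2, 6, 1, 4), (2, 6, 2, 7),
  (3, 0, 0, 3), (3, 0, 3, 3), (3, 0, 6, 3), (3, 1, 0, 3), (3, 1, 3, 4), (3, 1, 6, 5),
  (3, 2, 0, 3), (3, 2, 3, 5), (3, 2, 6, 4), (4, 1, 2, 5), (4, 1, 3, 3), (4, 1, 7, 4),
  (4, 2, 1, 5), (4, 2, 5, 4), (4, 2, 6, 3), (4, 3, 2, 2), (4, 3, 3, 5), (4, 3, 7, 8),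
  (4, 4, 1, 8), (4, 4, 5, 0), (4, 4, 6, 4), (4, 6, 1, 2), (4, 6, 5, 8), (4, 6, 6, 5),
  (4, 8, 2, 8), (4, 8, 3, 4), (4, 8, 7, 0), (5, 1, 2, 4), (5, 1, 4, 5), (5, 1, 6, 3),
  (5, 2, 1, 4), (5, 2, 3, 3), (5, 2, 8, 5), (5, 3, 1, 1), (5, 3, 3, 4), (5, 3, 8, 7),
  (5, 5, 2, 7), (5, 5, 4, 0), (5, 5, 6, 5), (5, 6, 2, 1), (5, 6, 4, 7), (5, 6, 6, 4),
  (5, 7, 1, 7), (5, 7, 3, 5), (5, 7, 8, 0), (6, 0, 0, 6), (6, 0, 3, 6), (6, 0, 6, 6),
  (6, 1, 0, 6), (6, 1, 3, 8), (6, 1, 6, 7), (6, 2, 0, 6), (6, 2, 3, 7), (6, 2, 6, 8),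
  (7, 1, 2, 8), (7, 1, 4, 7), (7, 1, 6, 6), (7, 2, 1, 8), (7, 2, 3, 6), (7, 2, 8, 7),
  (7, 3, 1, 2), (7, 3, 3, 8), (7, 3, 8, 5), (7, 5, 2, 5), (7, 5, 4, 0), (7, 5, 6, 7),
  (7, 6, 2, 2), (7, 6, 4, 5), (7, 6, 6, 8), (7, 7, 1, 5), (7, 7, 3, 7), (7, 7, 8, 0),
  (8, 1, 2, 7), (8, 1, 3, 6), (8, 1, 7, 8), (8, 2, 1, 7), (8, 2, 5, 8), (8, 2, 6, 6),
  (8, 3, 2, 1), (8, 3, 3, 7), (8, 3, 7, 4), (8, 4, 1, 4), (8, 4, 5, 0), (8, 4, 6, 8),
  (8, 6, 1, 1), (8, 6, 5, 4), (8, 6, 6, 7), (8, 8, 2, 4), (8, 8, 3, 8), (8, 8, 7, 0)]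

theorem elts_closed : ∀ m ∈ elts, stepL m ∈ elts ∧ stepU m ∈ elts := by decide +kernel

theorem elts_length : elts.length = 120 := by decide +kernel

theorem one_mem_elts : (3, 0, 0, 3) ∈ elts := by decide +kernel

theorem elts_lt : ∀ m ∈ elts, m.1 < 9 ∧ m.2.1 < 9 ∧ m.2.2.1 < 9 ∧ m.2.2.2 < 9 := by decide +kernel

variable {F : Type*} [Field F] {lam : F}

/-- Decoding. -/
def ev (lam : F) (u : ℕ) : F := ((u / 3 : ℕ) : F) + ((u % 3 : ℕ) : F) * lam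

theorem natMod [CharP F 3] (n : ℕ) : ((n % 3 : ℕ) : F) = (n : F) :=
  (CharP.cast_eq_mod F 3 n).symm

theorem ev_cadd [CharP F 3] (u v : ℕ) (hu : u < 9) (hv : v < 9) :
    ev lam (cadd u v) = ev lam u + ev lam v := by
  have h1 : cadd u v / 3 = (u / 3 + v / 3) % 3 := by unfold cadd; omega
  have h2 : cadd u v % 3 = (u % 3 + v % 3) % 3 := by unfold cadd; omega
  simp only [ev, h1, h2, natMod, Nat.cast_add]
  ring

theorem ev_clam [CharP F 3] (hl : lam ^ 2 = -1) (u : ℕ) (hu : u < 9) :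
    ev lam (clam u) = lam * ev lam u := by
  have h1 : clam u / 3 = (3 - u % 3) % 3 := by unfold clam; omega
  have h2 : clam u % 3 = u / 3 := by unfold clam; omega
  simp only [ev, h1, h2, natMod]
  rw [Nat.cast_sub (by omega : u % 3 ≤ 3), CharP.cast_eq_zero F 3, natMod]
  linear_combination (-(u : F)) * hl

theorem clam_lt (u : ℕ) (hu : u < 9) : clam u < 9 := by unfold clam; omega

/-- Decoding of a matrix. -/
def evM (lam : F) : ℕ × ℕ × ℕ × ℕ → Matrix (Fin 2) (Fin 2) F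
  | (a, b, c, d) => !![ev lam a, ev lam b; ev lam c, ev lam d]

theorem card_le [Fintype F] [CharP F 3] (hl : lam ^ 2 = -1) :
    Nat.card ↥(Subgroup.closure {g : Matrix.SpecialLinearGroup (Fin 2) F |
      (g : Matrix (Fin 2) (Fin 2) F) = !![1, 0; 1, 1] ∨
      (g : Matrix (Fin 2) (Fin 2) F) = !![1, lam; 0, 1]}) ≤ 120 := by
  classical
  set s := {g : Matrix.SpecialLinearGroup (Fin 2) F |
      (g : Matrix (Fin 2) (Fin 2) F) = !![1, 0; 1, 1] ∨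
      (g : Matrix (Fin 2) (Fin 2) F) = !![1, lam; 0, 1]}
  set T := (elts.map (evM lam)).toFinset
  have hmem : ∀ g ∈ Subgroup.closure s, (g : Matrix (Fin 2) (Fin 2) F) ∈ T := by
    intro g hg
    rw [← Subgroup.mem_toSubmonoid, Subgroup.closure_toSubmonoid_of_finite] at hg
    induction hg using Submonoid.closure_induction_right with
    | one =>
      rw [List.mem_toFinset, List.mem_map]
      refine ⟨_, one_mem_elts, ?_⟩
      ext i j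
      fin_cases i <;> fin_cases j <;> simp [evM, ev]
    | mul_right x _ y hy ih =>
      rw [List.mem_toFinset, List.mem_map] at ih ⊢
      obtain ⟨⟨a, b, c, d⟩, hm, hx⟩ := ih
      obtain ⟨ha, hb, hc, hd⟩ := elts_lt _ hm
      rcases hy with hy | hy
      · refine ⟨_, (elts_closed _ hm).1, ?_⟩
        rw [Matrix.SpecialLinearGroup.coe_mul, ← hx, hy]
        ext i j
        fin_cases i <;> fin_cases j <;>
          simp [evM, stepL, Matrix.mul_apply, ev_cadd _ _ ha hb, ev_cadd _ _ hc hd]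
      · refine ⟨_, (elts_closed _ hm).2, ?_⟩
        rw [Matrix.SpecialLinearGroup.coe_mul, ← hx, hy]
        ext i j
        fin_cases i <;> fin_cases j <;>
          simp [evM, stepU, Matrix.mul_apply, ev_cadd _ _ (clam_lt a ha) hb,
            ev_cadd _ _ (clam_lt c hc) hd, ev_clam hl a ha, ev_clam hl c hc, mul_comm]
  calc Nat.card ↥(Subgroup.closure s) ≤ Nat.card T :=
        Nat.card_le_card_of_injective (fun g => ⟨_, hmem g.1 g.2⟩) fun g g' h => by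
          exact Subtype.ext (Subtype.ext (Subtype.mk.inj h))
    _ ≤ 120 := by
        rw [Nat.card_eq_finsetCard]
        exact le_trans (List.toFinset_card_le _) (by rw [List.length_map, elts_length])

end CfsgLib.H29.TwoTrans
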