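import Cfsg.Agent.H29.Dickson.Exists
import Cfsg.Agent.H29.TwoTrans.Exceptional

set_option autoImplicit false

/-!
Two opposite transvections: the subgroup they generate.
-/

namespace CfsgLib.H29.TwoTrans

open Matrix OnePoint MulAction CfsgLib.H29.Dickson
open scoped OnePoint

variable {F : Type*} [Field F]

/-- The projection of `SL₂` to `PGL₂`. -/
noncomputable abbrev phi : SpecialLinearGroup (Fin 2) F →* P2 F :=
  (Matrix.ProjGenLinGroup.mk.comp Matrix.SpecialLinearGroup.toGL)

theorem phi_eq_iff {x y : SpecialLinearGroup (Fin 2) F} :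
    phi x = phi y ↔ ∃ c : F, c ≠ 0 ∧ ∀ i j, y i j = c * x i j := pr_eq_pr_iff

theorem entries_det (x : SpecialLinearGroup (Fin 2) F) :
    x 0 0 * x 1 1 - x 0 1 * x 1 0 = 1 := by
  have := x.2; rwa [det_fin_two] at this

theorem sign_of_phi_eq {x y : SpecialLinearGroup (Fin 2) F} (h : phi x = phi y) :
    y = x ∨ y = -x := by
  obtain ⟨c, -, hc⟩ := phi_eq_iff.mp h
  have hc2 : (c - 1) * (c + 1) = 0 := by
    have hy := entries_det y
    rw [hc, hc, hc, hc] at hy
    linear_combination hy - c ^ 2 * entries_det x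
  rcases mul_eq_zero.mp hc2 with h | h
  · left; ext i j; rw [hc, sub_eq_zero.mp h, one_mul]
  · right; ext i j; rw [hc, eq_neg_of_add_eq_zero_left h]; simp

theorem eq_neg_one_of_sq {g : SpecialLinearGroup (Fin 2) F} (h2 : (2 : F) ≠ 0) (h : g * g = 1)
    (hg : g ≠ 1) : g = -1 := by
  have he := fun i j => congrArg (fun z : SpecialLinearGroup (Fin 2) F => z i j) h
  simp only [Matrix.SpecialLinearGroup.coe_mul, Matrix.mul_apply, Fin.sum_univ_two,
    Matrix.SpecialLinearGroup.coe_one] at he
  have hd := entries_det g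
  have h00 := he 0 0
  have h01 := he 0 1
  have h10 := he 1 0
  have h11 := he 1 1
  simp at h00 h01 h10 h11
  have ht : g 0 0 + g 1 1 ≠ 0 := fun ht => h2 (by
    linear_combination (g 1 1) * ht - hd - h11)
  have hb : g 0 1 = 0 := (mul_eq_zero.mp
    (by linear_combination h01 : (g 0 0 + g 1 1) * g 0 1 = 0)).resolve_left ht
  have hc : g 1 0 = 0 := (mul_eq_zero.mp
    (by linear_combination h10 : (g 0 0 + g 1 1) * g 1 0 = 0)).resolve_left ht
  rw [hb] at h00 hd
  have had : g 1 1 = g 0 0 := by linear_combination (g 0 0) * hd - (g 1 1) * h00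
  rcases mul_eq_zero.mp (show (g 0 0 - 1) * (g 0 0 + 1) = 0 by linear_combination h00) with e | e
  · refine absurd ?_ hg
    ext i j
    fin_cases i <;> fin_cases j <;> simp [hb, hc, had, sub_eq_zero.mp e]
  · ext i j
    fin_cases i <;> fin_cases j <;> simp [hb, hc, had, eq_neg_of_add_eq_zero_left e]

/-- Trace condition when a power is trivial in `PGL₂`. -/
theorem trace_cond {x : SpecialLinearGroup (Fin 2) F} (hb : x 0 1 ≠ 0) {k : ℕ}
    (hk : k = 1 ∨ k = 2 ∨ k = 3 ∨ k = 5) (h : phi x ^ k = 1) :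
    x 0 0 + x 1 1 = 0 ∨ (x 0 0 + x 1 1) ^ 2 = 1 ∨
      (x 0 0 + x 1 1) ^ 4 - 3 * (x 0 0 + x 1 1) ^ 2 + 1 = 0 := by
  rw [← map_pow, ← map_one (phi (F := F)), phi_eq_iff] at h
  obtain ⟨c, hc0, hc⟩ := h
  have h01 := hc 0 1
  simp only [Matrix.SpecialLinearGroup.coe_one, one_apply_ne (show (0 : Fin 2) ≠ 1 by decide)] at h01
  have hp := (mul_eq_zero.mp h01.symm).resolve_left hc0
  rw [Matrix.SpecialLinearGroup.coe_pow] at hp
  have hd := entries_det x
  set t := x 0 0 + x 1 1 with ht
  set M := (x : Matrix (Fin 2) (Fin 2) F) with hM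
  have h2 : M * M = t • M - 1 := by
    ext i j
    fin_cases i <;> fin_cases j <;> simp [Matrix.mul_apply, ht] <;>
      first | ring1 | linear_combination hd | linear_combination -hd
  rcases hk with rfl | rfl | rfl | rfl
  · rw [pow_one] at hp; exact absurd hp hb
  · rw [pow_two, h2] at hp
    simp at hp
    exact Or.inl (hp.resolve_right hb)
  · have h3 : M ^ 3 = (t ^ 2 - 1) • M - t • 1 := by
      rw [pow_succ, pow_two, h2, sub_mul, smul_mul_assoc, h2, one_mul]; module
    rw [h3] at hp
    simp at hp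
    exact Or.inr (Or.inl (sub_eq_zero.mp (hp.resolve_right hb)))
  · have h3 : M ^ 3 = (t ^ 2 - 1) • M - t • 1 := by
      rw [pow_succ, pow_two, h2, sub_mul, smul_mul_assoc, h2, one_mul]; module
    have h5 : M ^ 5 = (t ^ 4 - 3 * t ^ 2 + 1) • M - (t ^ 3 - 2 * t) • 1 := by
      rw [pow_succ, pow_succ, h3]
      simp only [sub_mul, smul_mul_assoc, one_mul, h2, smul_sub, smul_smul]
      module
    rw [h5] at hp
    simp at hp
    exact Or.inr (Or.inr (hp.resolve_right hb))

variable [Fintype F]

theorem dichotomy (h2 : (2 : F) ≠ 0) {lam : F} (hlam : lam ≠ 0)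
    (hgen : Subfield.closure ({lam} : Set F) = ⊤) (G : Subgroup (SpecialLinearGroup (Fin 2) F))
    {l u : SpecialLinearGroup (Fin 2) F} (hl : (l : Matrix (Fin 2) (Fin 2) F) = !![1, 0; 1, 1])
    (hu : (u : Matrix (Fin 2) (Fin 2) F) = !![1, lam; 0, 1]) (hlG : l ∈ G) (huG : u ∈ G) :
    G = ⊤ ∨ (Fintype.card F = 9 ∧ lam ^ 2 = -1 ∧ Nat.card G = 120) := by
  classical
  obtain ⟨p, hp, hcp, -⟩ := exists_p (F := F)
  have := Fact.mk hp
  obtain ⟨n, hn, hq⟩ := exists_deg p (F := F)
  have := finite_P2 (F := F)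
  have hp2 : p ≠ 2 := p_ne_two p h2
  have htop : ∀ L : Subfield F, lam ∈ L → L = ⊤ := fun L h =>
    top_le_iff.mp (hgen ▸ Subfield.closure_le.mpr (Set.singleton_subset_iff.mpr h))
  set Gb := G.map (phi (F := F)) with hGb
  have hel : phi l = low (1 : F) := by
    refine pr_eq_pr_iff.mpr ⟨1, one_ne_zero, fun i j => ?_⟩
    fin_cases i <;> fin_cases j <;> simp [hl]
  have heu : phi u = tra lam := by
    refine pr_eq_pr_iff.mpr ⟨1, one_ne_zero, fun i j => ?_⟩
    fin_cases i <;> fin_cases j <;> simp [hu]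
  have hlow : low (1 : F) ∈ Gb := hel ▸ Subgroup.mem_map_of_mem _ hlG
  have htra : tra lam ∈ Gb := heu ▸ Subgroup.mem_map_of_mem _ huG
  have hne : tra lam ≠ (1 : P2 F) := fun e => hlam (tra_injective (e.trans tra_zero.symm))
  have hinf : low (1 : F) • (∞ : OnePoint F) = ((1 : F) : OnePoint F) := by
    rw [low, smul_infty_of (by simp)]; simp
  have hno : tra lam * low 1 ≠ low 1 * tra lam := fun e => by
    have := congrArg (· • (∞ : OnePoint F)) e
    simp only [mul_smul, tra_smul_infty, hinf, tra_smul_coe, coe_eq_coe] at this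
    exact hlam (add_left_cancel (a := (1 : F)) (by simpa using this))
  have hpd : p ∣ Nat.card Gb := by
    have ho : orderOf (tra lam : P2 F) = p := orderOf_eq_prime (tra_pow_char p lam) hne
    rw [← ho, ← Subgroup.orderOf_mk (tra lam) htra]
    exact orderOf_dvd_natCard _
  have hGW : Gb ≤ W F := by rintro _ ⟨x, -, rfl⟩; exact ⟨x, rfl⟩
  -- preimages
  have hneg : (2 ∣ Nat.card Gb) → (-1 : SpecialLinearGroup (Fin 2) F) ∈ G := fun hd => by
    obtain ⟨g, hg⟩ := exists_prime_orderOf_dvd_card' (G := G) 2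
      (hd.trans (Subgroup.card_map_dvd _ _))
    rw [orderOf_eq_iff two_pos] at hg
    have hg1 : g ≠ 1 := fun e => hg.2 1 one_lt_two one_pos (by rw [e, one_pow])
    have := eq_neg_one_of_sq h2 (g := (g : SpecialLinearGroup (Fin 2) F))
      (by rw [← Subgroup.coe_mul, ← pow_two, hg.1]; rfl)
      (fun e => hg1 (Subtype.ext e))
    exact this ▸ g.2
  have big : W F ≤ Gb → G = ⊤ := fun hW => by
    let J : SpecialLinearGroup (Fin 2) F := ⟨!![0, 1; -1, 0], by simp [det_fin_two_of]⟩
    obtain ⟨g, hg, hgJ⟩ := hW ⟨J, rfl⟩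
    have hm1 : (-1 : SpecialLinearGroup (Fin 2) F) ∈ G := by
      have hJ : J * J = -1 := by
        ext i j
        rw [Matrix.SpecialLinearGroup.coe_mul]
        fin_cases i <;> fin_cases j <;> simp [J, Matrix.mul_apply]
      rcases sign_of_phi_eq hgJ with e | e
      · rw [← hJ, e]; exact G.mul_mem hg hg
      · rw [← hJ, e, neg_mul_neg]; exact G.mul_mem hg hg
    refine eq_top_iff.mpr fun x _ => ?_
    obtain ⟨g, hg, hgx⟩ := hW ⟨x, rfl⟩
    rcases sign_of_phi_eq hgx with rfl | rfl
    · exact hg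
    · rw [← neg_one_mul]; exact G.mul_mem hm1 hg
  have sub : ∀ (γ : P2 F) (L : Subfield F),
      Gb.map (MulAut.conj γ).toMonoidHom ≤ PL L → L = ⊤ := fun γ L hle => by
    obtain ⟨C, rfl⟩ := exists_pr γ
    have key : ∀ x ∈ G, (x 0 0 + x 1 1) ^ 2 ∈ L := fun x hx => by
      obtain ⟨m, hm⟩ := hle (Subgroup.mem_map_of_mem _ (Subgroup.mem_map_of_mem _ hx))
      obtain ⟨m, rfl⟩ := exists_pr m
      have hm' : pr (Matrix.GeneralLinearGroup.map L.subtype m) =
          pr (C * Matrix.SpecialLinearGroup.toGL x * C⁻¹) := by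
        rw [map_mul, map_mul, map_inv]
        rw [ProjGenLinGroup.map_mk] at hm
        exact hm
      obtain ⟨c, hc0, hc⟩ := pr_eq_pr_iff.mp hm'
      set N := ((C * Matrix.SpecialLinearGroup.toGL x * C⁻¹ : GL (Fin 2) F) : Matrix (Fin 2) (Fin 2) F) with hN
      have htr : N.trace = x 0 0 + x 1 1 := by
        rw [hN, Units.val_mul, Units.val_mul, Matrix.trace_units_conj, Matrix.trace_fin_two]
        rfl
      have hdet : N.det = 1 := by
        rw [hN, Units.val_mul, Units.val_mul, Matrix.det_units_conj]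
        exact x.2
      rw [Matrix.trace_fin_two] at htr
      rw [det_fin_two] at hdet
      simp only [hc] at htr hdet
      set M := fun i j => (Matrix.GeneralLinearGroup.map L.subtype m : GL (Fin 2) F) i j
      have hM : ∀ i j, M i j ∈ L := fun i j => by
        change L.subtype (m i j) ∈ L
        exact (m i j).2
      have hd0 : M 0 0 * M 1 1 - M 0 1 * M 1 0 ≠ 0 := fun e => one_ne_zero (α := F) (by
        linear_combination -hdet + c ^ 2 * e)
      have : (x 0 0 + x 1 1) ^ 2 = (M 0 0 + M 1 1) ^ 2 / (M 0 0 * M 1 1 - M 0 1 * M 1 0) := by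
        rw [eq_div_iff hd0, ← htr]
        linear_combination (M 0 0 + M 1 1) ^ 2 * hdet
      rw [this]
      exact L.div_mem (pow_mem (L.add_mem (hM _ _) (hM _ _)) _)
        (L.sub_mem (L.mul_mem (hM _ _) (hM _ _)) (L.mul_mem (hM _ _) (hM _ _)))
    have k1 := key _ (G.mul_mem hlG huG)
    have k2 := key _ (G.mul_mem (G.mul_mem hlG hlG) huG)
    simp [Matrix.mul_apply, hl, hu] at k1 k2
    have h12 : (-8 : F) ≠ 0 := by
      rw [show (-8 : F) = -(2 * 2 * 2) by norm_num]
      exact neg_ne_zero.mpr (mul_ne_zero (mul_ne_zero h2 h2) h2)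
    have hmem : (-8 : F) * lam ∈ L := by
      have e : (-8 : F) * lam = ((1 + (lam * (1 + 1) + 1)) ^ 2 - 4 * (1 + (lam + 1)) ^ 2) + 12 := by
        ring
      rw [e]
      exact L.add_mem (L.sub_mem (by convert k2 using 1; ring)
        (L.mul_mem (natCast_mem L 4) (by convert k1 using 1 <;> ring))) (natCast_mem L 12)
    apply htop
    have := L.div_mem hmem (L.neg_mem (natCast_mem L 8))
    rwa [Nat.cast_ofNat, mul_div_cancel_left₀ _ h12] at this
  cases subKind p Gb with
  | borel x h =>
    exfalso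
    have hx := h _ htra
    induction x using OnePoint.rec with
    | infty => have := h _ hlow; rw [hinf] at this; exact coe_ne_infty _ this
    | coe k => rw [tra_smul_coe, coe_eq_coe] at hx; exact hlam (by simpa using hx)
  | cyclic a b c hc hc1 hab hle hnp => exact absurd hpd hnp
  | dih a b c hc hc1 hab hcab hle m hm hord hmc e =>
    obtain ⟨e⟩ := e
    exfalso
    have rot : ∀ g : Gb, g ^ p = 1 → ∃ i, e g = DihedralGroup.r i := fun g hg => by
      cases hcase : e g with
      | r i => exact ⟨i, rfl⟩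
      | sr i =>
        exfalso
        have h1 : orderOf (e g) ∣ p := orderOf_dvd_of_pow_eq_one (by rw [← map_pow, hg, map_one])
        rw [hcase, DihedralGroup.orderOf_sr] at h1
        exact hp2 ((Nat.prime_dvd_prime_iff_eq Nat.prime_two hp).mp h1).symm
    have hlp : low (1 : F) ^ p = 1 := by
      rw [low, ← map_pow, pr_eq_one_iff]
      have : ∀ k : ℕ, ((el (1 : F) 0 1 1 (by simp) ^ k : GL (Fin 2) F) : Matrix (Fin 2) (Fin 2) F) =
          !![1, 0; (k : F), 1] := fun k => by
        induction k with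
        | zero => ext i j; fin_cases i <;> fin_cases j <;> simp
        | succ k ih =>
          rw [pow_succ, Units.val_mul, ih]
          ext i j
          fin_cases i <;> fin_cases j <;> simp [Matrix.mul_apply]
      rw [this, CharP.cast_eq_zero]
      simp
    obtain ⟨i, hi⟩ := rot ⟨_, htra⟩ (Subtype.ext (tra_pow_char p lam))
    obtain ⟨j, hj⟩ := rot ⟨_, hlow⟩ (Subtype.ext hlp)
    refine hno (congrArg Subtype.val (show (⟨_, htra⟩ * ⟨_, hlow⟩ : Gb) = ⟨_, hlow⟩ * ⟨_, htra⟩ from
      e.injective ?_))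
    rw [map_mul, map_mul, hi, hj, DihedralGroup.r_mul_r, DihedralGroup.r_mul_r, add_comm]
  | a4 hc hnp e => exact absurd (hc ▸ hpd) hnp
  | s4 hc hnp e => exact absurd (hc ▸ hpd) hnp
  | a5 hc hnp e =>
    obtain rfl : p = 3 := hnp.resolve_left (not_not_intro (hc ▸ hpd))
    obtain ⟨e⟩ := e
    right
    have h3 : (3 : F) = 0 := by simpa using CharP.cast_eq_zero F 3
    have hnot : ∀ x : F, x ^ 3 = x → lam ≠ x := fun x hx hlx => by
      subst hlx
      have hL := htop (fixF F 3 1) (by rw [mem_fixF, pow_one]; exact hx)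
      have hle := card_le_of_fixF_top (F := F) 3 one_pos (fun y => hL ▸ Subfield.mem_top y)
      have hd := Subgroup.card_subgroup_dvd_card Gb
      rw [hc, card_P2, Nat.card_eq_fintype_card] at hd
      have h3q : Fintype.card F = 3 := by
        have := Nat.le_self_pow hn.ne' 3
        omega
      rw [h3q] at hd
      norm_num at hd
    have ord : ∀ x ∈ G, x 0 1 ≠ 0 → x 0 0 + x 1 1 = 0 ∨ (x 0 0 + x 1 1) ^ 2 = 1 ∨
        (x 0 0 + x 1 1) ^ 4 - 3 * (x 0 0 + x 1 1) ^ 2 + 1 = 0 := fun x hx hb => by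
      have h5 : ∀ y : alternatingGroup (Fin 5), y ^ 2 = 1 ∨ y ^ 3 = 1 ∨ y ^ 5 = 1 := by
        decide +kernel
      have key : ∀ k, e ⟨_, Subgroup.mem_map_of_mem (phi (F := F)) hx⟩ ^ k = 1 → phi x ^ k = 1 :=
        fun k hk => by
          rw [← map_pow, ← map_one e] at hk
          exact congrArg Subtype.val (e.injective hk)
      rcases h5 (e ⟨_, Subgroup.mem_map_of_mem (phi (F := F)) hx⟩) with h | h | h
      · exact trace_cond hb (k := 2) (by norm_num) (key _ h)
      · exact trace_cond hb (k := 3) (by norm_num) (key _ h)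
      · exact trace_cond hb (k := 5) (by norm_num) (key _ h)
    have c1 := ord _ (G.mul_mem hlG huG) (by simp [Matrix.mul_apply, hl, hu, hlam])
    have c2 := ord _ (G.mul_mem hlG (G.inv_mem huG)) (by
      simp [Matrix.mul_apply, Matrix.SpecialLinearGroup.coe_inv, Matrix.adjugate_fin_two, hl, hu, hlam])
    have t1 : (l * u) 0 0 + (l * u) 1 1 = 2 + lam := by
      simp [Matrix.mul_apply, hl, hu]; ring
    have t2 : (l * u⁻¹) 0 0 + (l * u⁻¹) 1 1 = 2 - lam := by
      simp [Matrix.mul_apply, Matrix.SpecialLinearGroup.coe_inv, Matrix.adjugate_fin_two, hl, hu]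
      ring
    rw [t1] at c1
    rw [t2] at c2
    have small : ∀ t : F, (t = 0 ∨ t ^ 2 = 1) → t ^ 3 = t := by
      rintro t (rfl | h)
      · simp
      · linear_combination t * h
    have lam3 : ∀ t : F, t ^ 3 = t → (lam = t - 2 ∨ lam = 2 - t) → False := fun t ht h => by
      rcases h with h | h
      · exact hnot _ (by linear_combination ht + (-2 * t ^ 2 + 4 * t - 2) * h3) h
      · exact hnot _ (by linear_combination -ht + (2 * t ^ 2 - 4 * t + 2) * h3) h
    have hsq : lam ^ 2 = -1 := by
      rcases c1 with h | h | h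
      · exact (lam3 _ (small _ (Or.inl h)) (Or.inl (by ring))).elim
      · exact (lam3 _ (small _ (Or.inr h)) (Or.inl (by ring))).elim
      rcases c2 with h' | h' | h'
      · exact (lam3 _ (small _ (Or.inl h')) (Or.inr (by ring))).elim
      · exact (lam3 _ (small _ (Or.inr h')) (Or.inr (by ring))).elim
      have e8 : lam * (lam ^ 2 + 1) = 0 := by
        linear_combination h - h' - (5 * lam ^ 3 + 13 * lam) * h3
      exact eq_neg_of_add_eq_zero_left ((mul_eq_zero.mp e8).resolve_left hlam)
    have hn2 : Fintype.card F = 9 := by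
      have hL := htop (fixF F 3 2) (by
        rw [mem_fixF]
        linear_combination lam * (lam ^ 2 - 1) * (lam ^ 4 + 1) * hsq)
      have hle := card_le_of_fixF_top (F := F) 3 two_pos (fun y => hL ▸ Subfield.mem_top y)
      rcases (show n = 1 ∨ 2 ≤ n by omega) with rfl | h2n
      · exfalso
        have hf := FiniteField.pow_card lam
        rw [hq, pow_one] at hf
        exact hnot lam hf rfl
      · have := Nat.pow_le_pow_right (show 0 < 3 by norm_num) h2n
        omega
    refine ⟨hn2, hsq, ?_⟩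
    have hm1 := hneg (by rw [hc]; norm_num)
    let f : G →* P2 F := (phi (F := F)).comp G.subtype
    have hr : f.range = Gb := by
      rw [MonoidHom.range_comp, Subgroup.range_subtype]
    have hk : Nat.card f.ker = 2 := by
      rw [Nat.card_eq_two_iff]
      refine ⟨1, ⟨⟨-1, hm1⟩, ?_⟩, ?_, ?_⟩
      · rw [MonoidHom.mem_ker]
        change phi (-1 : SpecialLinearGroup (Fin 2) F) = 1
        rw [← map_one (phi (F := F)), eq_comm, phi_eq_iff]
        exact ⟨-1, by simp, fun i j => by simp⟩
      · intro h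
        have := congrArg (fun z : f.ker => ((z : G) : SpecialLinearGroup (Fin 2) F) 0 0) h
        simp at this
        exact h2 (by linear_combination this)
      · refine Set.eq_univ_of_forall fun z => ?_
        have hz : phi ((z : G) : SpecialLinearGroup (Fin 2) F) = 1 := z.2
        rw [← map_one (phi (F := F))] at hz
        rcases sign_of_phi_eq hz.symm with h | h
        · exact Or.inl (Subtype.ext (Subtype.ext h))
        · exact Or.inr (Subtype.ext (Subtype.ext h))
    rw [Subgroup.card_eq_card_quotient_mul_card_subgroup f.ker,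
      Nat.card_congr (QuotientGroup.quotientKerEquivRange f).toEquiv, hr, hc, hk]
  | pgl γ L h | psl γ L h =>
    left
    apply big
    have hLtop : L = ⊤ := sub γ L (by first | exact h.le | exact h.le.trans (PS_le_PL L))
    have hWle : W F ≤ Gb.map (MulAut.conj γ).toMonoidHom := by
      rw [h, hLtop]
      have hPS : W F ≤ PS (⊤ : Subfield F) := by
        have h1 := card_W_mul (F := F)
        have h2' := card_PS_mul (⊤ : Subfield F)
        have ht : Nat.card (⊤ : Subfield F) = Fintype.card F := by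
          rw [Nat.card_congr Subfield.topEquiv.toEquiv, Nat.card_eq_fintype_card]
        rw [ht] at h2'
        rw [card_P2, Nat.card_eq_fintype_card (α := F), ← h2'] at h1
        exact (Subgroup.eq_of_le_of_card_ge (PS_le_W _) (Nat.eq_of_mul_eq_mul_right
          (Nat.gcd_pos_of_pos_left _ two_pos) h1).le).ge
      first | exact hPS | exact hPS.trans (PS_le_PL _)
    intro w hw
    have hn := W_normal (F := F)
    obtain ⟨y, hy, hyw⟩ := hWle (hn.conj_mem _ hw γ)
    have : y = w := (MulAut.conj γ).injective (by simpa using hyw)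
    exact this ▸ hy

theorem main (h2 : (2 : F) ≠ 0) (lam : F) (hlam : lam ≠ 0)
    (hgen : Subfield.closure ({lam} : Set F) = ⊤) :
    let K := Subgroup.closure {g : Matrix.SpecialLinearGroup (Fin 2) F |
      (g : Matrix (Fin 2) (Fin 2) F) = !![1, 0; 1, 1] ∨
      (g : Matrix (Fin 2) (Fin 2) F) = !![1, lam; 0, 1]}
    (K = ⊤ ∧ ¬ (Fintype.card F = 9 ∧ lam ^ 2 = -1)) ∨
      (Fintype.card F = 9 ∧ lam ^ 2 = -1 ∧ Nat.card ↥K = 120) := by
  intro K
  let l : SpecialLinearGroup (Fin 2) F := ⟨!![1, 0; 1, 1], by simp [det_fin_two_of]⟩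
  let u : SpecialLinearGroup (Fin 2) F := ⟨!![1, lam; 0, 1], by simp [det_fin_two_of]⟩
  rcases dichotomy h2 hlam hgen K (l := l) (u := u) rfl rfl
    (Subgroup.subset_closure (Or.inl rfl)) (Subgroup.subset_closure (Or.inr rfl)) with h | h
  · refine Or.inl ⟨h, fun ⟨hq, hsq⟩ => ?_⟩
    obtain ⟨p, hp, hcp, -⟩ := exists_p (F := F)
    have := Fact.mk hp
    obtain ⟨n, hn, hqn⟩ := exists_deg p (F := F)
    obtain rfl : p = 3 := (Nat.prime_dvd_prime_iff_eq hp Nat.prime_three).mp
      (hp.dvd_of_dvd_pow (show p ∣ 3 ^ 2 by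
        rw [show (3 : ℕ) ^ 2 = Fintype.card F by rw [hq]; norm_num, hqn]; exact dvd_pow_self p hn.ne'))
    have hle : Nat.card K ≤ 120 := card_le (F := F) hsq
    rw [h, Subgroup.card_top] at hle
    have := finite_P2 (F := F)
    have hsur : Nat.card (W F) ≤ Nat.card (SpecialLinearGroup (Fin 2) F) :=
      Nat.card_le_card_of_surjective (phi (F := F)).rangeRestrict
        (phi (F := F)).rangeRestrict_surjective
    have hW := card_W_two h2
    rw [hq] at hW
    generalize Nat.card (W F) = w at hW hsur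
    norm_num at hW
    omega
  · exact Or.inr h

end CfsgLib.H29.TwoTrans
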